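import Cfsg.Agent.H446.FC.V7
import Cfsg.Agent.H797.FQ.OC3

/-!
# Orbits of the parabolic subgroup of type `B₃` of `F₄(q)` on its unipotent radical, spin layer (S2464)

`K` a finite field with `2 ≠ 0`, `V = VJ J` (`J = {1, 2, 3}`, order `q ^ 15`), `Z` the product of the seven root groups
with coefficient `2` at the node `0`.

* `R u c` : `u = ∏ x_s(c s) * z`, `s` in the list `L8` of the 8 roots of level one, `z ∈ Z`;
* `ob3_spin` : `u ∈ V`, `u ∉ Z`: the class of `u` under `P_J` has at least `q ^ 7` elements;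
* `ob3` : `OB3 K`, with the layer `Z` of helper446.
-/

set_option autoImplicit false
set_option linter.unusedSectionVars false

namespace Cfsg.Agent.H797.FQ.Spin

open CoxeterSystem Cfsg.Agent.ChevalleyStructure.CoxeterGeom Cfsg.Agent.Tits.Roots Cfsg.Agent.Tits.Core
  Cfsg.Agent.Tits.Exchange Cfsg.Agent.Nodes.Reps Cfsg.Agent.Nodes.BNOf Cfsg.Agent.Nodes.StabComb
  Cfsg.Agent.Nodes.Bruhat Cfsg.Agent.Nodes.OppDec Cfsg.Agent.Nodes.LeviDec
  Cfsg.Agent.Nodes.RGDChev Cfsg.Agent.KFacts.RgdPar Cfsg.Agent.KFacts.RgdChevCoord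
  Cfsg.Agent.H225.PPow
open Cfsg.Agent.H701.F43.Cent (hF cF nroots)
open Cfsg.Lie Cfsg.Agent.ChevalleyStructure Cfsg.Agent.ChevalleyStructure.CoxeterGeomTypes
open Cfsg.Agent.H797.FQ (e E E_nil E_cons E_zero E_congr E_single conj_e conj_E sum_apply sum_filter sum_delta card_XX)
open Cfsg.Agent.H520.FC (PK VK cls)

universe u

variable {K : Type u} [Field K]

/-- the nodes of `B₃` -/
abbrev J0 : Set (Fin 4) := {k | k ≠ 0}

/-- the roots of level one -/
def L8 : List ℕ := [33, 34, 35, 36, 37, 38, 39, 40]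

/-- the roots of level two -/
def L7 : List ℕ := [41, 42, 43, 44, 45, 46, 47]

/-- the roots of `V` -/
def iV : List ℕ := [33, 34, 35, 36, 37, 38, 39, 40, 41, 42, 43, 44, 45, 46, 47]

/-- the roots of `B₃` -/
def iM : List ℕ := [15, 16, 17, 18, 19, 20, 21, 22, 23, 24, 25, 26, 27, 28, 29, 30, 31, 32]

theorem tabV0 : ∀ r < chevF4.nroots, (0 < vec chevF4 4 r 0 ↔ r ∈ iV) := by decide +kernel

theorem tabM0 : ∀ r < chevF4.nroots, (vec chevF4 4 r 0 = 0 ↔ r ∈ iM) := by decide +kernel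

theorem lt_iV : ∀ r ∈ iV, r < chevF4.nroots := by decide +kernel

theorem lt_iM : ∀ r ∈ iM, r < chevF4.nroots := by decide +kernel

theorem L8_V : ∀ s ∈ L8, s ∈ iV := by decide

theorem L7_V : ∀ s ∈ L7, s ∈ iV := by decide

theorem L8_ne : ∀ s ∈ L8, s ∉ L7 := by decide

theorem L8_nodup : L8.Nodup := by decide

theorem L7_nodup : L7.Nodup := by decide

theorem iV_cases : ∀ s ∈ iV, s ∈ L7 ∨ s ∈ L8 := by decide

theorem mem_NotJ0 {x : Fin 4 → ℤ} : x ∈ NotJ cF hF.isCartan J0 ↔ IsRoot cF hF.isCartan x ∧ 0 < x 0 := by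
  constructor
  · rintro ⟨h1, -, k, hk, h2⟩
    have h3 : k = 0 := by
      by_contra h
      exact hk h
    exact ⟨h1, h3 ▸ h2⟩
  · rintro ⟨h1, h2⟩
    exact ⟨h1, nonneg_of_pos_apply h1 h2, 0, fun h => h rfl, h2⟩

theorem mem_RootsJ0 {x : Fin 4 → ℤ} : x ∈ RootsJ cF hF.isCartan J0 ↔ IsRoot cF hF.isCartan x ∧ x 0 = 0 := by
  constructor
  · rintro ⟨h1, h2⟩
    exact ⟨h1, h2 0 fun h => h rfl⟩
  · rintro ⟨h1, h2⟩
    refine ⟨h1, fun k hk => ?_⟩
    have h3 : k = 0 := by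
      by_contra h
      exact hk h
    rw [h3, h2]

theorem mem_NotJ0_iff {x : Fin 4 → ℤ} : x ∈ NotJ cF hF.isCartan J0 ↔ ∃ r ∈ iV, x = vec chevF4 4 r := by
  rw [mem_NotJ0]
  constructor
  · rintro ⟨h1, h2⟩
    obtain ⟨r, hr, rfl⟩ := (isRoot_iff hF cF x).1 h1
    exact ⟨r, (tabV0 r hr).1 h2, rfl⟩
  · rintro ⟨r, hr, rfl⟩
    exact ⟨(isRoot_iff hF cF _).2 ⟨r, lt_iV r hr, rfl⟩, (tabV0 r (lt_iV r hr)).2 hr⟩

theorem mem_RootsJ0_iff {x : Fin 4 → ℤ} : x ∈ RootsJ cF hF.isCartan J0 ↔ ∃ r ∈ iM, x = vec chevF4 4 r := by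
  rw [mem_RootsJ0]
  constructor
  · rintro ⟨h1, h2⟩
    obtain ⟨r, hr, rfl⟩ := (isRoot_iff hF cF x).1 h1
    exact ⟨r, (tabM0 r hr).1 h2, rfl⟩
  · rintro ⟨r, hr, rfl⟩
    exact ⟨(isRoot_iff hF cF _).2 ⟨r, lt_iM r hr, rfl⟩, (tabM0 r (lt_iM r hr)).2 hr⟩

/-! ### the layer `Z` -/

theorem e_zero (r : ℕ) : e r (0 : K) = 1 := ex_zero hF r

theorem tab7 : ∀ r ∈ L7, ∀ s ∈ iV, s ≠ r → chevF4.commTerms r s = [] ∧ s ≠ chevF4.neg r := by decide +kernel

theorem comm7 {r s : ℕ} (hr : r ∈ L7) (hs : s ∈ iV) (a b : K) : e s a * e r b = e r b * e s a := by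
  by_cases h : s = r
  · subst h
    show ex hF s a * ex hF s b = ex hF s b * ex hF s a
    rw [← ex_add hF, ← ex_add hF, add_comm]
  · obtain ⟨h1, h2⟩ := tab7 r hr s hs h
    have h3 := ex_comm hF (lt_iV r (L7_V r hr)) (lt_iV s hs) h h2 b a
    rw [h1, List.map_nil, List.prod_nil, mul_one] at h3
    exact h3

theorem comm7E {L : List ℕ} (hL : ∀ r ∈ L, r ∈ L7) {s : ℕ} (hs : s ∈ iV) (a : K) (b : ℕ → K) :
    e s a * E L b = E L b * e s a := by
  induction L with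
  | nil => rw [E_nil, one_mul, mul_one]
  | cons r L ih =>
    have h1 := ih fun s hs => hL s (List.mem_cons_of_mem _ hs)
    rw [E_cons, ← mul_assoc, comm7 (hL r List.mem_cons_self) hs, mul_assoc, h1, mul_assoc]

theorem E7_comm_E {L : List ℕ} (hL : ∀ s ∈ L, s ∈ iV) (c b : ℕ → K) : E L c * E L7 b = E L7 b * E L c := by
  induction L with
  | nil => rw [E_nil, one_mul, mul_one]
  | cons s L ih =>
    have h1 := ih fun s hs => hL s (List.mem_cons_of_mem _ hs)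
    rw [E_cons, mul_assoc, h1, ← mul_assoc, comm7E (fun _ h => h) (hL s List.mem_cons_self), mul_assoc]

theorem E7_add' {L : List ℕ} (hL : ∀ r ∈ L, r ∈ L7) (a b : ℕ → K) : E L a * E L b = E L (a + b) := by
  induction L with
  | nil => rw [E_nil, E_nil, E_nil, one_mul]
  | cons r L ih =>
    have hL' : ∀ s ∈ L, s ∈ L7 := fun s hs => hL s (List.mem_cons_of_mem _ hs)
    have h1 := comm7E hL' (L7_V r (hL r List.mem_cons_self)) (b r) a
    have h2 : e r ((a + b) r) = e r (a r) * e r (b r) := ex_add hF r (a r) (b r)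
    rw [E_cons, E_cons, E_cons, ← ih hL', h2]
    calc e r (a r) * E L a * (e r (b r) * E L b) = e r (a r) * (E L a * e r (b r)) * E L b := by group
      _ = e r (a r) * e r (b r) * (E L a * E L b) := by rw [← h1]; group

theorem E7_add (a b : ℕ → K) : E L7 a * E L7 b = E L7 (a + b) := E7_add' (fun _ h => h) a b

theorem prod7 {α : Type*} (l : List α) (n : α → ℕ) (f : α → K) (h : ∀ c ∈ l, n c ∈ L7) :
    (l.map fun c => e (n c) (f c)).prod = E L7 ((l.map fun c => (Pi.single (n c) (f c) : ℕ → K)).sum) := by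
  induction l with
  | nil => rw [List.map_nil, List.prod_nil, List.map_nil, List.sum_nil, E_zero]
  | cons c l ih =>
    rw [List.map_cons, List.prod_cons, List.map_cons, List.sum_cons, ← E7_add,
      E_single L7_nodup _ (h c List.mem_cons_self), ih fun d hd => h d (List.mem_cons_of_mem _ hd)]

/-! ### coordinates -/

/-- the coordinates of an element of `V` -/
def R (u : ↥(chevF4.group K)) (c : ℕ → K) : Prop := ∃ b : ℕ → K, u = E L8 c * E L7 b

theorem tab88 : ∀ r ∈ L8, ∀ s ∈ L8, s ≠ r → s ≠ chevF4.neg r ∧ ∀ c ∈ chevF4.commTerms r s, c.1 ∈ L7 := by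
  decide +kernel

/-- commutators in `V` -/
theorem comm88 {r s : ℕ} (hr : r ∈ L8) (hs : s ∈ L8) (x y : K) :
    ∃ b : ℕ → K, e s x * e r y = e r y * e s x * E L7 b := by
  by_cases h : s = r
  · subst h
    refine ⟨0, ?_⟩
    rw [E_zero, mul_one]
    show ex hF s x * ex hF s y = ex hF s y * ex hF s x
    rw [← ex_add hF, ← ex_add hF, add_comm]
  · obtain ⟨h1, h2⟩ := tab88 r hr s hs h
    have h3 := prod7 (chevF4.commTerms r s) (fun c => c.1) (fun c => (c.2.1 : K) * (-y) ^ c.2.2.1 * x ^ c.2.2.2) h2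
    have h4 : e s x * e r y = e r y * e s x * ((chevF4.commTerms r s).map fun c =>
        e c.1 ((c.2.1 : K) * (-y) ^ c.2.2.1 * x ^ c.2.2.2)).prod :=
      ex_comm hF (lt_iV r (L8_V r hr)) (lt_iV s (L8_V s hs)) h h1 y x
    exact ⟨_, h4.trans (congrArg (fun z => e r y * e s x * z) h3)⟩

theorem E_mul_e {L : List ℕ} (hL : ∀ s ∈ L, s ∈ L8) (c : ℕ → K) {r : ℕ} (hr : r ∈ L8) (y : K) :
    ∃ b : ℕ → K, E L c * e r y = e r y * E L c * E L7 b := by
  induction L with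
  | nil => exact ⟨0, by rw [E_nil, E_zero]; group⟩
  | cons s L ih =>
    obtain ⟨b, hb⟩ := ih fun s hs => hL s (List.mem_cons_of_mem _ hs)
    obtain ⟨b', hb'⟩ := comm88 hr (hL s List.mem_cons_self) (c s) y
    have h1 := E7_comm_E (fun s hs => L8_V s (hL s (List.mem_cons_of_mem _ hs))) c b'
    refine ⟨b' + b, ?_⟩
    rw [E_cons, mul_assoc, hb, ← E7_add]
    calc e s (c s) * (e r y * E L c * E L7 b) = (e s (c s) * e r y) * E L c * E L7 b := by group
      _ = e r y * e s (c s) * (E L7 b' * E L c) * E L7 b := by rw [hb']; group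
      _ = e r y * e s (c s) * (E L c * E L7 b') * E L7 b := by rw [h1]
      _ = _ := by group

theorem E_mul {L : List ℕ} (hL : ∀ s ∈ L, s ∈ L8) (c d : ℕ → K) :
    ∃ b : ℕ → K, E L c * E L d = E L (c + d) * E L7 b := by
  induction L with
  | nil => exact ⟨0, by rw [E_nil, E_nil, E_nil, E_zero]⟩
  | cons s L ih =>
    have hL' : ∀ s ∈ L, s ∈ L8 := fun s hs => hL s (List.mem_cons_of_mem _ hs)
    obtain ⟨b, hb⟩ := ih hL'
    obtain ⟨b', hb'⟩ := E_mul_e hL' c (hL s List.mem_cons_self) (d s)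
    have h1 := E7_comm_E (fun s hs => L8_V s (hL' s hs)) d b'
    refine ⟨b + b', ?_⟩
    rw [E_cons, E_cons, E_cons, ← E7_add]
    have h2 : e s ((c + d) s) = e s (c s) * e s (d s) := ex_add hF s (c s) (d s)
    calc e s (c s) * E L c * (e s (d s) * E L d) = e s (c s) * (E L c * e s (d s)) * E L d := by group
      _ = e s (c s) * e s (d s) * E L c * (E L7 b' * E L d) := by rw [hb']; group
      _ = e s (c s) * e s (d s) * E L c * (E L d * E L7 b') := by rw [h1]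
      _ = e s (c s) * e s (d s) * (E L c * E L d) * E L7 b' := by group
      _ = e s ((c + d) s) * E L (c + d) * (E L7 b * E L7 b') := by rw [hb, h2]; group

theorem R.mul {u v : ↥(chevF4.group K)} {c d : ℕ → K} (hu : R u c) (hv : R v d) : R (u * v) (c + d) := by
  obtain ⟨a, rfl⟩ := hu
  obtain ⟨b, rfl⟩ := hv
  obtain ⟨b', hb'⟩ := E_mul (fun s hs => hs) c d (L := L8)
  have h1 := E7_comm_E L8_V d a
  refine ⟨b' + a + b, ?_⟩
  calc E L8 c * E L7 a * (E L8 d * E L7 b) = E L8 c * (E L7 a * E L8 d) * E L7 b := by group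
    _ = E L8 c * E L8 d * E L7 a * E L7 b := by rw [← h1]; group
    _ = E L8 (c + d) * (E L7 b' * E L7 a * E L7 b) := by rw [hb']; group
    _ = _ := by rw [E7_add, E7_add]

/-- unit vectors, `0` for the roots of level two -/
def sg (v : ℕ) (x : K) : ℕ → K := if v ∈ L7 then 0 else Pi.single v x

theorem R.one : R (1 : ↥(chevF4.group K)) 0 := ⟨0, by rw [E_zero, E_zero, mul_one]⟩

theorem R.seven (b : ℕ → K) : R (E L7 b) 0 := ⟨b, by rw [E_zero, one_mul]⟩

theorem R.sg {v : ℕ} (hv : v ∈ iV) (x : K) : R (e v x) (sg v x) := by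
  rcases iV_cases v hv with h | h
  · refine ⟨Pi.single v x, ?_⟩
    show e v x = E L8 (if v ∈ L7 then 0 else Pi.single v x) * E L7 (Pi.single v x)
    rw [if_pos h, E_zero, one_mul, E_single L7_nodup x h]
  · refine ⟨0, ?_⟩
    show e v x = E L8 (if v ∈ L7 then 0 else Pi.single v x) * E L7 0
    rw [if_neg (L8_ne v h), E_single L8_nodup x h, E_zero, mul_one]

theorem R.prod {α : Type*} {l : List α} {f : α → ↥(chevF4.group K)} {g : α → ℕ → K} (h : ∀ a ∈ l, R (f a) (g a)) :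
    R (l.map f).prod (l.map g).sum := by
  induction l with
  | nil => exact R.one
  | cons a l ih =>
    rw [List.map_cons, List.prod_cons, List.map_cons, List.sum_cons]
    exact (h a List.mem_cons_self).mul (ih fun b hb => h b (List.mem_cons_of_mem _ hb))

theorem R.inv {u : ↥(chevF4.group K)} {c : ℕ → K} (hu : R u c) : ∃ d, R u⁻¹ d := by
  obtain ⟨a, rfl⟩ := hu
  obtain ⟨b, hb⟩ := E_mul (fun s hs => hs) c (-c) (L := L8)
  rw [add_neg_cancel, E_zero, one_mul] at hb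
  have h3 : ∀ x : ℕ → K, E L7 (-x) = (E L7 x)⁻¹ := fun x => by
    rw [eq_inv_iff_mul_eq_one, E7_add, neg_add_cancel, E_zero]
  have h2 : (E L8 c)⁻¹ = E L8 (-c) * (E L7 b)⁻¹ := by
    rw [inv_eq_iff_mul_eq_one, ← mul_assoc, hb, mul_inv_cancel]
  refine ⟨0 + (-c + 0), ?_⟩
  rw [mul_inv_rev, h2, ← h3, ← h3]
  exact (R.seven (-a)).mul (R.mul ⟨0, by rw [E_zero, mul_one]⟩ (R.seven (-b)))

/-- the coordinates of the conjugate of a root element -/
noncomputable def img (g : ℕ) (t : K) (s : ℕ) (b : K) : ℕ → K :=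
  sg s b + ((chevF4.commTerms g s).map fun c => sg c.1 ((c.2.1 : K) * t ^ c.2.2.1 * b ^ c.2.2.2)).sum

theorem tabMV : ∀ g ∈ iM, ∀ s ∈ iV, g ≠ s ∧ s ≠ chevF4.neg g ∧ ∀ c ∈ chevF4.commTerms g s, c.1 ∈ iV := by
  decide +kernel

theorem tabM7 : ∀ g ∈ iM, ∀ s ∈ L7, ∀ c ∈ chevF4.commTerms g s, c.1 ∈ L7 := by
  decide +kernel

theorem R.img {g s : ℕ} (hg : g ∈ iM) (hs : s ∈ iV) (t b : K) :
    R (e g t * e s b * (e g t)⁻¹) (img g t s b) := by
  obtain ⟨h0, h1, h2⟩ := tabMV g hg s hs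
  rw [conj_e (lt_iM g hg) (lt_iV s hs) h0 h1]
  exact (R.sg hs b).mul (R.prod fun c hc => R.sg (h2 c hc) _)

theorem conj7 {g : ℕ} (hg : g ∈ iM) (t : K) {L : List ℕ} (hL : ∀ s ∈ L, s ∈ L7) (b : ℕ → K) :
    ∃ b' : ℕ → K, e g t * E L b * (e g t)⁻¹ = E L7 b' := by
  induction L with
  | nil => exact ⟨0, by rw [E_nil, E_zero, mul_one, mul_inv_cancel]⟩
  | cons s L ih =>
    obtain ⟨b', hb'⟩ := ih fun s hs => hL s (List.mem_cons_of_mem _ hs)
    have hs : s ∈ L7 := hL s List.mem_cons_self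
    obtain ⟨h0, h1, -⟩ := tabMV g hg s (L7_V s hs)
    have h2 := conj_e (lt_iM g hg) (lt_iV s (L7_V s hs)) h0 h1 t (b s)
    rw [prod7 (chevF4.commTerms g s) (fun c => c.1) (fun c => (c.2.1 : K) * t ^ c.2.2.1 * (b s) ^ c.2.2.2)
      (tabM7 g hg s hs), ← E_single L7_nodup (b s) hs, E7_add] at h2
    have h3 : e g t * E (s :: L) b * (e g t)⁻¹ =
        (e g t * E L7 (Pi.single s (b s)) * (e g t)⁻¹) * (e g t * E L b * (e g t)⁻¹) := by
      rw [E_cons, E_single L7_nodup (b s) hs]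
      group
    rw [h2, hb', E7_add] at h3
    exact ⟨_, h3⟩

/-- the action on the coordinates -/
noncomputable def MM' (g : ℕ) (t : K) (c : ℕ → K) : ℕ → K := (L8.map fun s => img g t s (c s)).sum

theorem R.conj {u : ↥(chevF4.group K)} {c : ℕ → K} (hu : R u c) {g : ℕ} (hg : g ∈ iM) (t : K) :
    R (e g t * u * (e g t)⁻¹) (MM' g t c) := by
  obtain ⟨b, rfl⟩ := hu
  obtain ⟨b', hb'⟩ := conj7 hg t (fun s hs => hs) b (L := L7)
  have h1 : e g t * (E L8 c * E L7 b) * (e g t)⁻¹ = (e g t * E L8 c * (e g t)⁻¹) * E L7 b' := by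
    rw [← hb']; group
  rw [h1, conj_E]
  have h4 := (R.prod (l := L8) (f := fun s => e g t * e s (c s) * (e g t)⁻¹) (g := fun s => Spin.img g t s (c s))
    fun s hs => R.img hg (L8_V s hs) t (c s)).mul (R.seven b')
  rw [add_zero] at h4
  exact h4

/-- the contributions to the coordinate `m` -/
def ctr (g m : ℕ) : List (ℕ × ℤ × ℕ × ℕ) :=
  L8.flatMap fun s => ((chevF4.commTerms g s).filter fun c => c.1 = m).map fun c => (s, c.2.1, c.2.2.1, c.2.2.2)

theorem sg_apply {v m : ℕ} (hm : m ∉ L7) (x : K) : sg v x m = if v = m then x else 0 := by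
  unfold sg
  by_cases h : v ∈ L7
  · rw [if_pos h, if_neg (by rintro rfl; exact hm h)]
    rfl
  · rw [if_neg h]
    by_cases h1 : v = m
    · subst h1
      rw [Pi.single_eq_same, if_pos rfl]
    · rw [Pi.single_eq_of_ne (Ne.symm h1), if_neg h1]

theorem MM'_apply (g : ℕ) (t : K) (c : ℕ → K) {m : ℕ} (hm : m ∈ L8) :
    MM' g t c m = c m + ((ctr g m).map fun q => (q.2.1 : K) * t ^ q.2.2.1 * (c q.1) ^ q.2.2.2).sum := by
  have hm' := L8_ne m hm
  unfold MM'
  rw [sum_apply]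
  have h1 : ∀ s, img g t s (c s) m = (if s = m then c s else 0) +
      (((chevF4.commTerms g s).filter fun c => c.1 = m).map fun q => (q.2.1 : K) * t ^ q.2.2.1 * (c s) ^ q.2.2.2).sum := by
    intro s
    unfold img
    rw [Pi.add_apply, sg_apply hm', sum_apply, ← sum_filter]
    congr 2
    exact List.map_congr_left fun q _ => sg_apply hm' _
  rw [List.map_congr_left fun s _ => h1 s, List.sum_map_add, sum_delta L8_nodup hm]
  congr 1
  unfold ctr
  rw [List.map_flatMap]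
  clear h1
  induction L8 with
  | nil => rfl
  | cons s L ih =>
    rw [List.map_cons, List.sum_cons, ih, List.flatMap_cons, List.sum_append, List.map_map]
    rfl

/-! ### the group `V` -/

/-- the elements with coordinates -/
noncomputable def RS (K : Type u) [Field K] : Subgroup ↥(chevF4.group K) where
  carrier := {u | ∃ c, R u c}
  mul_mem' := by rintro u v ⟨c, hc⟩ ⟨d, hd⟩; exact ⟨_, hc.mul hd⟩
  one_mem' := ⟨0, R.one⟩
  inv_mem' := by rintro u ⟨c, hc⟩; exact hc.inv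

/-- every element of `V` has coordinates -/
theorem exists_R {u : ↥(chevF4.group K)} (hu : u ∈ VK K J0) : ∃ c, R u c := by
  have h : VK K J0 ≤ RS K := RGD.Sup_le fun x hx => by
    obtain ⟨r, hr, rfl⟩ := mem_NotJ0_iff.1 hx
    intro y hy
    obtain ⟨t, rfl⟩ := (mem_XX_vec hF (lt_iV r hr)).1 hy
    exact ⟨_, R.sg hr t⟩
  exact h hu

theorem e_mem_VK {r : ℕ} (hr : r ∈ iV) (t : K) : e r t ∈ VK K J0 :=
  RGD.le_Sup (mem_NotJ0_iff.2 ⟨r, hr, rfl⟩) ((mem_XX_vec hF (lt_iV r hr)).2 ⟨t, rfl⟩)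

theorem E_mem_VK {L : List ℕ} (hL : ∀ s ∈ L, s ∈ iV) (c : ℕ → K) : E L c ∈ VK K J0 := by
  induction L with
  | nil => exact one_mem _
  | cons s L ih =>
    rw [E_cons]
    exact mul_mem (e_mem_VK (hL s List.mem_cons_self) _) (ih fun s hs => hL s (List.mem_cons_of_mem _ hs))

theorem nodup_vec : (iV.map fun r => (fun i : Fin 4 => vec chevF4 4 r i)).Nodup := by decide +kernel

theorem card_VK [Finite K] : Nat.card ↥(VK K J0) = Nat.card K ^ 15 := by
  classical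
  obtain ⟨p, hpc⟩ := CharP.exists K
  have : Fact p.Prime := ⟨CharP.char_is_prime K p⟩
  have Rd := rgd (K := K) hF cF p
  let s : Finset (Fin 4 → ℤ) := (iV.map fun r => vec chevF4 4 r).toFinset
  have hs : (s : Set (Fin 4 → ℤ)) = NotJ cF hF.isCartan J0 := by
    ext x
    rw [mem_NotJ0_iff, Finset.mem_coe, List.mem_toFinset, List.mem_map]
    exact ⟨fun ⟨r, hr, h⟩ => ⟨r, hr, h.symm⟩, fun ⟨r, hr, h⟩ => ⟨r, hr, h.symm⟩⟩
  have hsc : s.card = 15 := by
    rw [List.toFinset_card_of_nodup nodup_vec, List.length_map]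
    rfl
  have h1 := Cfsg.Agent.Nodes.CardSup.card_sup Rd (s := s) (by
    rw [hs]
    rintro x hx
    exact ⟨hx.1, hx.2.1⟩) (by
    rw [hs]
    rintro x hx y hy z ⟨hz, m, a, b, hm, ha, hb, he⟩
    rw [mem_NotJ0] at hx hy ⊢
    refine ⟨hz, ?_⟩
    have h2 := congrFun he 0
    rw [Pi.smul_apply, Pi.add_apply, Pi.smul_apply, Pi.smul_apply, smul_eq_mul, smul_eq_mul, smul_eq_mul] at h2
    by_contra hneg
    push Not at hneg
    have h3 : m * z 0 ≤ 0 := mul_nonpos_of_nonneg_of_nonpos hm.le hneg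
    have h4 := mul_pos ha hx.2
    have h5 := mul_pos hb hy.2
    linarith)
  rw [hs] at h1
  have h2 : ∏ x ∈ s, Nat.card ↥(XX chevF4 4 K x) = Nat.card K ^ 15 := by
    rw [Finset.prod_congr rfl (g := fun _ => Nat.card K), Finset.prod_const, hsc]
    intro x hx
    rw [List.mem_toFinset, List.mem_map] at hx
    obtain ⟨r, hr, rfl⟩ := hx
    exact card_XX (lt_iV r hr)
  rw [← h2, ← h1]
  rfl

/-- extension by zero -/
noncomputable def xt {L : List ℕ} (f : ↥L.toFinset → K) (n : ℕ) : K := if h : n ∈ L.toFinset then f ⟨n, h⟩ else 0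

theorem xt_rest {L : List ℕ} (c : ℕ → K) : E L (xt fun s : ↥L.toFinset => c s.1) = E L c := by
  refine E_congr fun s hs => ?_
  unfold xt
  rw [dif_pos (List.mem_toFinset.2 hs)]

theorem unique [Finite K] {c d a b : ℕ → K} (h : E L8 c * E L7 a = E L8 d * E L7 b) :
    (∀ s ∈ L8, c s = d s) ∧ ∀ s ∈ L7, a s = b s := by
  classical
  have hmem : ∀ c a : ℕ → K, E L8 c * E L7 a ∈ VK K J0 := fun c a =>
    mul_mem (E_mem_VK L8_V c) (E_mem_VK L7_V a)
  let Φ : (↥L8.toFinset → K) × (↥L7.toFinset → K) → ↥(VK K J0) := fun x => ⟨E L8 (xt x.1) * E L7 (xt x.2), hmem _ _⟩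
  have hsurj : Function.Surjective Φ := by
    rintro ⟨u, hu⟩
    obtain ⟨c, b, hc⟩ := exists_R hu
    refine ⟨(fun s => c s.1, fun s => b s.1), Subtype.ext ?_⟩
    show E L8 (xt fun s => c s.1) * E L7 (xt fun s => b s.1) = u
    rw [xt_rest, xt_rest, hc]
  have hcard : Nat.card ((↥L8.toFinset → K) × (↥L7.toFinset → K)) ≤ Nat.card ↥(VK K J0) := by
    have h8 : Nat.card ↥L8.toFinset = 8 := by
      rw [Nat.card_eq_fintype_card, Fintype.card_coe]
      rfl
    have h7 : Nat.card ↥L7.toFinset = 7 := by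
      rw [Nat.card_eq_fintype_card, Fintype.card_coe]
      rfl
    rw [card_VK, Nat.card_prod, Nat.card_fun, Nat.card_fun, h8, h7, ← pow_add]
  have hbij := Function.Surjective.bijective_of_nat_card_le hsurj hcard
  have h1 : Φ (fun s => c s.1, fun s => a s.1) = Φ (fun s => d s.1, fun s => b s.1) := by
    apply Subtype.ext
    show E L8 (xt fun s => c s.1) * E L7 (xt fun s => a s.1) = E L8 (xt fun s => d s.1) * E L7 (xt fun s => b s.1)
    rw [xt_rest, xt_rest, xt_rest, xt_rest, h]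
  have h2 := hbij.1 h1
  refine ⟨fun s hs => ?_, fun s hs => ?_⟩
  · exact congrFun (congrArg Prod.fst h2) ⟨s, List.mem_toFinset.2 hs⟩
  · exact congrFun (congrArg Prod.snd h2) ⟨s, List.mem_toFinset.2 hs⟩

/-! ### the parabolic subgroup -/

theorem e_mem_PK {r : ℕ} (hr : r ∈ iM) (t : K) : e r t ∈ PK K J0 :=
  LJ_le_PJ (X_le_LJ (mem_RootsJ0_iff.2 ⟨r, hr, rfl⟩) ((mem_XX_vec hF (lt_iM r hr)).2 ⟨t, rfl⟩))

theorem e_mem_PK' {r : ℕ} (hr : r ∈ iV) (t : K) : e r t ∈ PK K J0 := VJ_le_PJ (e_mem_VK hr t)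

theorem t1 : ctr 20 33 = [(34, 1, 1, 1)] := by decide +kernel
theorem t2 : ctr 22 34 = [(35, 1, 1, 1)] := by decide +kernel
theorem t3 : ctr 20 35 = [(37, 1, 1, 1)] := by decide +kernel
theorem t4 : ctr 23 35 = [(36, 1, 1, 1)] := by decide +kernel
theorem t5 : ctr 20 36 = [(38, 1, 1, 1)] := by decide +kernel
theorem t6 : ctr 22 38 = [(39, 1, 1, 1)] := by decide +kernel
theorem t7 : ctr 20 39 = [(40, 1, 1, 1)] := by decide +kernel

/-- `Z` -/
abbrev ZZ (K : Type u) [Field K] : Subgroup ↥(chevF4.group K) :=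
  RGD.Sup (XX chevF4 4 K) {x | x ∈ NotJ cF hF.isCartan {k | k ≠ 0} ∧ 2 ≤ x 0}

theorem tabZ : ∀ r ∈ L7, 2 ≤ vec chevF4 4 r 0 := by decide +kernel

theorem E7_mem_ZZ {L : List ℕ} (hL : ∀ s ∈ L, s ∈ L7) (c : ℕ → K) : E L c ∈ ZZ K := by
  induction L with
  | nil => exact one_mem _
  | cons s L ih =>
    rw [E_cons]
    have hs : s ∈ L7 := hL s List.mem_cons_self
    have h1 : vec chevF4 4 s ∈ {x | x ∈ NotJ cF hF.isCartan {k | k ≠ 0} ∧ 2 ≤ x 0} :=
      ⟨mem_NotJ0_iff.2 ⟨s, L7_V s hs, rfl⟩, tabZ s hs⟩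
    exact mul_mem (RGD.le_Sup h1 ((mem_XX_vec hF (lt_iV s (L7_V s hs))).2 ⟨c s, rfl⟩))
      (ih fun s hs => hL s (List.mem_cons_of_mem _ hs))

/-- **irreducibility** -/
theorem exists_33 {u : ↥(chevF4.group K)} {c : ℕ → K} (hu : R u c) (hne : u ∉ ZZ K) :
    ∃ g ∈ PK K J0, ∃ c, R (g * u * g⁻¹) c ∧ c 33 ≠ 0 := by
  by_contra hcon
  push Not at hcon
  let Z : ℕ → Prop := fun m => ∀ g ∈ PK K J0, ∀ c, R (g * u * g⁻¹) c → c m = 0
  have z33 : Z 33 := hcon
  have one : ∀ {γ m r : ℕ}, γ ∈ iM → m ∈ L8 → ctr γ m = [(r, 1, 1, 1)] → Z m → Z r := by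
    intro γ m r hγ hm ht hZ g hg c hc
    have h1 := hc.conj hγ 1
    have h3 : e γ (1 : K) * (g * u * g⁻¹) * (e γ 1)⁻¹ = (e γ 1 * g) * u * (e γ 1 * g)⁻¹ := by group
    rw [h3] at h1
    have h4 := hZ _ (mul_mem (e_mem_PK hγ 1) hg) _ h1
    rw [MM'_apply γ 1 c hm, hZ g hg c hc, zero_add, ht, List.map_cons, List.map_nil, List.sum_cons, List.sum_nil,
      add_zero] at h4
    simpa using h4
  have z34 := one (by decide) (by decide) t1 z33
  have z35 := one (by decide) (by decide) t2 z34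
  have z37 := one (by decide) (by decide) t3 z35
  have z36 := one (by decide) (by decide) t4 z35
  have z38 := one (by decide) (by decide) t5 z36
  have z39 := one (by decide) (by decide) t6 z38
  have z40 := one (by decide) (by decide) t7 z39
  have hu' : R (1 * u * 1⁻¹) c := by rwa [one_mul, inv_one, mul_one]
  have hc : ∀ s ∈ L8, c s = (0 : ℕ → K) s := by
    intro s hs
    simp only [L8, List.mem_cons, List.not_mem_nil, or_false] at hs
    rcases hs with rfl | rfl | rfl | rfl | rfl | rfl | rfl | rfl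
    · exact z33 1 (one_mem _) c hu'
    · exact z34 1 (one_mem _) c hu'
    · exact z35 1 (one_mem _) c hu'
    · exact z36 1 (one_mem _) c hu'
    · exact z37 1 (one_mem _) c hu'
    · exact z38 1 (one_mem _) c hu'
    · exact z39 1 (one_mem _) c hu'
    · exact z40 1 (one_mem _) c hu'
  obtain ⟨b, hb⟩ := hu
  rw [E_congr hc, E_zero, one_mul] at hb
  apply hne
  rw [hb]
  exact E7_mem_ZZ (fun _ h => h) b

/-! ### the orbit -/

/-- the table for a list of root groups -/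
def Tb (A M : List ℕ) : Prop := (∀ γ ∈ A, γ ∈ iM) ∧ (∀ γ ∈ A, γ + 7 ∈ L8) ∧ 33 ∈ M ∧ (∀ m ∈ M, m ∈ L8) ∧
  ∀ γ ∈ A, (∀ m ∈ M, ctr γ m = []) ∧ ∀ δ ∈ A, ctr γ (δ + 7) = if γ = δ then [(33, 1, 1, 1)] else []

/-- the first triple -/
def A3 : List ℕ := [27, 28, 29]

/-- the second triple -/
def B3 : List ℕ := [30, 31, 32]

theorem tbA : Tb A3 [33] := ⟨by decide, by decide, by decide, by decide, by decide +kernel⟩

theorem tbB : Tb B3 [33, 34, 35, 36] := ⟨by decide, by decide, by decide, by decide, by decide +kernel⟩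

theorem orb {A M : List ℕ} (hA : Tb A M) {u : ↥(chevF4.group K)} {c : ℕ → K} (hu : R u c) (t : ℕ → K) :
    ∀ {L : List ℕ}, L.Nodup → (∀ γ ∈ L, γ ∈ A) →
    ∃ c', R (E L t * u * (E L t)⁻¹) c' ∧ (∀ m ∈ M, c' m = c m) ∧
      ∀ δ ∈ A, c' (δ + 7) = c (δ + 7) + (if δ ∈ L then t δ * c 33 else 0) := by
  obtain ⟨hA1, hA2, hM, hM', hA3⟩ := hA
  intro L
  induction L with
  | nil =>
    intro _ _
    refine ⟨c, ?_, fun m _ => rfl, fun δ _ => ?_⟩
    · rw [E_nil, one_mul, inv_one, mul_one]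
      exact hu
    · rw [if_neg (List.not_mem_nil), add_zero]
  | cons γ L ih =>
    intro hn hL
    rw [List.nodup_cons] at hn
    obtain ⟨c', h1, h2, h3⟩ := ih hn.2 fun γ hγ => hL γ (List.mem_cons_of_mem _ hγ)
    have hγ : γ ∈ A := hL γ List.mem_cons_self
    obtain ⟨hB1, hB2⟩ := hA3 γ hγ
    refine ⟨MM' γ (t γ) c', ?_, ?_, ?_⟩
    · have h4 := h1.conj (hA1 γ hγ) (t γ)
      have h5 : e γ (t γ) * (E L t * u * (E L t)⁻¹) * (e γ (t γ))⁻¹ = E (γ :: L) t * u * (E (γ :: L) t)⁻¹ := by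
        rw [E_cons]; group
      rwa [h5] at h4
    · intro m hm
      rw [MM'_apply γ (t γ) c' (hM' m hm), hB1 m hm, List.map_nil, List.sum_nil, add_zero, h2 m hm]
    · intro δ hδ
      rw [MM'_apply γ (t γ) c' (hA2 δ hδ), hB2 δ hδ, h3 δ hδ]
      by_cases h : γ = δ
      · subst h
        rw [if_pos rfl, if_neg hn.1, if_pos List.mem_cons_self, List.map_cons, List.map_nil, List.sum_cons,
          List.sum_nil, h2 33 hM]
        simp only [Int.cast_one, pow_one]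
        ring
      · rw [if_neg h, List.map_nil, List.sum_nil, add_zero]
        congr 1
        refine if_congr ?_ rfl rfl
        rw [List.mem_cons]
        exact ⟨Or.inr, fun h' => h'.resolve_left (Ne.symm h)⟩

/-- the commutator of `x_37(y)` with `x_s(x)` -/
noncomputable def dd (s : ℕ) (y x : K) : ℕ → K :=
  ((chevF4.commTerms 37 s).map fun c => (Pi.single c.1 ((c.2.1 : K) * y ^ c.2.2.1 * x ^ c.2.2.2) : ℕ → K)).sum

theorem t37 : chevF4.commTerms 37 33 = [(41, -2, 1, 1)] ∧ chevF4.commTerms 37 34 = [] ∧ chevF4.commTerms 37 35 = [] ∧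
    chevF4.commTerms 37 36 = [(44, -1, 1, 1)] ∧ chevF4.commTerms 37 37 = [] ∧ chevF4.commTerms 37 38 = [(45, -2, 1, 1)] ∧
    chevF4.commTerms 37 39 = [(46, -2, 1, 1)] ∧ chevF4.commTerms 37 40 = [] := by decide +kernel

theorem c37 {s : ℕ} (hs : s ∈ L8) (y x : K) : e 37 y * e s x * (e 37 y)⁻¹ = e s x * E L7 (dd s y x) := by
  by_cases h : s = 37
  · subst h
    unfold dd
    rw [t37.2.2.2.2.1, List.map_nil, List.sum_nil, E_zero, mul_one]
    have h1 : e 37 y * e 37 x = e 37 x * e 37 y := by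
      show ex hF 37 y * ex hF 37 x = ex hF 37 x * ex hF 37 y
      rw [← ex_add hF, ← ex_add hF, add_comm]
    rw [h1, mul_assoc, mul_inv_cancel, mul_one]
  · obtain ⟨h1, h2⟩ := tab88 37 (by decide) s hs h
    rw [conj_e (lt_iV 37 (by decide)) (lt_iV s (L8_V s hs)) (Ne.symm h) h1 y x,
      prod7 (chevF4.commTerms 37 s) (fun c => c.1) (fun c => (c.2.1 : K) * y ^ c.2.2.1 * x ^ c.2.2.2) h2]
    rfl

theorem c37E {L : List ℕ} (hL : ∀ s ∈ L, s ∈ L8) (c : ℕ → K) (y : K) :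
    e 37 y * E L c * (e 37 y)⁻¹ = E L c * E L7 ((L.map fun s => dd s y (c s)).sum) := by
  induction L with
  | nil => rw [E_nil, List.map_nil, List.sum_nil, E_zero, mul_one, mul_inv_cancel, mul_one]
  | cons s L ih =>
    have hL' : ∀ s ∈ L, s ∈ L8 := fun s hs => hL s (List.mem_cons_of_mem _ hs)
    rw [E_cons, List.map_cons, List.sum_cons, ← E7_add]
    have h1 := E7_comm_E (fun s hs => L8_V s (hL' s hs)) c (dd s y (c s))
    calc e 37 y * (e s (c s) * E L c) * (e 37 y)⁻¹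
        = (e 37 y * e s (c s) * (e 37 y)⁻¹) * (e 37 y * E L c * (e 37 y)⁻¹) := by group
      _ = e s (c s) * (E L7 (dd s y (c s)) * E L c) * E L7 ((L.map fun s => dd s y (c s)).sum) := by
          rw [c37 (hL s List.mem_cons_self), ih hL']; group
      _ = _ := by rw [← h1]; group

theorem dd41 (c : ℕ → K) (y : K) : ((L8.map fun s => dd s y (c s)).sum) 41 = -(2 * (y * c 33)) := by
  obtain ⟨h1, h2, h3, h4, h5, h6, h7, h8⟩ := t37
  rw [sum_apply]
  simp only [L8, List.map_cons, List.map_nil, List.sum_cons, List.sum_nil, dd, h1, h2, h3, h4, h5, h6, h7, h8]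
  simp
  ring

/-- conjugation by `x_37` -/
theorem conj37 (c b : ℕ → K) (y : K) : ∃ b' : ℕ → K, e 37 y * (E L8 c * E L7 b) * (e 37 y)⁻¹ = E L8 c * E L7 b' ∧
    b' 41 = b 41 - 2 * (y * c 33) := by
  refine ⟨(L8.map fun s => dd s y (c s)).sum + b, ?_, ?_⟩
  · have h1 := c37E (fun s hs => hs) c y (L := L8)
    have h2 := comm7E (fun s hs => hs) (s := 37) (by decide) y b (L := L7)
    rw [← E7_add]
    calc e 37 y * (E L8 c * E L7 b) * (e 37 y)⁻¹
        = (e 37 y * E L8 c * (e 37 y)⁻¹) * (e 37 y * E L7 b) * (e 37 y)⁻¹ := by group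
      _ = E L8 c * E L7 ((L8.map fun s => dd s y (c s)).sum) * E L7 b := by rw [h1, h2]; group
      _ = _ := by group
  · rw [Pi.add_apply, dd41]
    ring

theorem E_mem_PK {L : List ℕ} (hL : ∀ s ∈ L, s ∈ iM) (c : ℕ → K) : E L c ∈ PK K J0 := by
  induction L with
  | nil => exact one_mem _
  | cons s L ih =>
    rw [E_cons]
    exact mul_mem (e_mem_PK (hL s List.mem_cons_self) _) (ih fun s hs => hL s (List.mem_cons_of_mem _ hs))

theorem xt_inj {L : List ℕ} {f f' : ↥L.toFinset → K} (h : ∀ s ∈ L, xt f s = xt f' s) : f = f' := by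
  funext ⟨s, hs⟩
  have h8 := h s (List.mem_toFinset.1 hs)
  unfold xt at h8
  rwa [dif_pos hs, dif_pos hs] at h8

/-- the coordinates determine the parameters of a triple -/
theorem inj_orb [Finite K] {A M : List ℕ} (hA : Tb A M) (hn : A.Nodup) {u v : ↥(chevF4.group K)} {c d : ℕ → K}
    (hu : R u c) (hv : R v d) (hcd : ∀ s ∈ A, c (s + 7) = d (s + 7)) (h33 : c 33 ≠ 0) (h33' : c 33 = d 33)
    {t t' : ℕ → K} (h : E A t * u * (E A t)⁻¹ = E A t' * v * (E A t')⁻¹) : ∀ s ∈ A, t s = t' s := by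
  obtain ⟨c', ⟨b, hb⟩, -, h2⟩ := orb hA hu t hn fun _ h => h
  obtain ⟨d', ⟨b', hb'⟩, -, h2'⟩ := orb hA hv t' hn fun _ h => h
  have h3 : E L8 c' * E L7 b = E L8 d' * E L7 b' := by rw [← hb, ← hb', h]
  obtain ⟨h4, -⟩ := unique h3
  intro s hs
  have h5 := h4 (s + 7) (hA.2.1 s hs)
  rw [h2 s hs, h2' s hs, if_pos hs, if_pos hs, hcd s hs, ← h33'] at h5
  exact mul_right_cancel₀ h33 (add_left_cancel h5)

theorem card_le_of_33 [Finite K] (h2 : (2 : K) ≠ 0) {u : ↥(chevF4.group K)} {c : ℕ → K} (hu : R u c) (h33 : c 33 ≠ 0) :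
    Nat.card K ^ 7 ≤ Nat.card ↥(cls (PK K J0) u) := by
  classical
  let Ψ : (↥A3.toFinset → K) × (↥B3.toFinset → K) × K → ↥(cls (PK K J0) u) := fun x =>
    ⟨(E A3 (xt x.1) * E B3 (xt x.2.1) * e 37 x.2.2) * u * (E A3 (xt x.1) * E B3 (xt x.2.1) * e 37 x.2.2)⁻¹, _,
      mul_mem (mul_mem (E_mem_PK tbA.1 _) (E_mem_PK tbB.1 _)) (e_mem_PK' (by decide) _), rfl⟩
  have hcard : Nat.card ((↥A3.toFinset → K) × (↥B3.toFinset → K) × K) = Nat.card K ^ 7 := by
    have hA : Nat.card ↥A3.toFinset = 3 := by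
      rw [Nat.card_eq_fintype_card, Fintype.card_coe]
      rfl
    have hB : Nat.card ↥B3.toFinset = 3 := by
      rw [Nat.card_eq_fintype_card, Fintype.card_coe]
      rfl
    rw [Nat.card_prod, Nat.card_prod, Nat.card_fun, Nat.card_fun, hA, hB]
    ring
  rw [← hcard]
  have : Finite ↥(chevF4.group K) := inferInstance
  refine Nat.card_le_card_of_injective Ψ ?_
  rintro ⟨f, g, y⟩ ⟨f', g', y'⟩ h
  have h1 : (E A3 (xt f) * E B3 (xt g) * e 37 y) * u * (E A3 (xt f) * E B3 (xt g) * e 37 y)⁻¹ =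
      (E A3 (xt f') * E B3 (xt g') * e 37 y') * u * (E A3 (xt f') * E B3 (xt g') * e 37 y')⁻¹ := congrArg Subtype.val h
  obtain ⟨b, hb⟩ := hu
  obtain ⟨a, ha, ha'⟩ := conj37 c b y
  obtain ⟨a', hc, hc'⟩ := conj37 c b y'
  rw [← hb] at ha hc
  have r1 : R (e 37 y * u * (e 37 y)⁻¹) c := ⟨a, ha⟩
  have r2 : R (e 37 y' * u * (e 37 y')⁻¹) c := ⟨a', hc⟩
  obtain ⟨d, s1, s2, -⟩ := orb tbB r1 (xt g) (L := B3) (by decide) fun _ h => h
  obtain ⟨d', s1', s2', -⟩ := orb tbB r2 (xt g') (L := B3) (by decide) fun _ h => h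
  have h3 : E A3 (xt f) * (E B3 (xt g) * (e 37 y * u * (e 37 y)⁻¹) * (E B3 (xt g))⁻¹) * (E A3 (xt f))⁻¹ =
      E A3 (xt f') * (E B3 (xt g') * (e 37 y' * u * (e 37 y')⁻¹) * (E B3 (xt g'))⁻¹) * (E A3 (xt f'))⁻¹ := by
    calc _ = (E A3 (xt f) * E B3 (xt g) * e 37 y) * u * (E A3 (xt f) * E B3 (xt g) * e 37 y)⁻¹ := by group
      _ = _ := h1
      _ = _ := by group
  have tabAB : ∀ s ∈ A3, s + 7 ∈ [33, 34, 35, 36] := by decide
  have h4 : f = f' := xt_inj (inj_orb tbA (by decide) s1 s1'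
    (fun s hs => (s2 _ (tabAB s hs)).trans (s2' _ (tabAB s hs)).symm) (by rwa [s2 33 (by decide)])
    ((s2 33 (by decide)).trans (s2' 33 (by decide)).symm) h3)
  subst h4
  have h5 := mul_left_cancel (mul_right_cancel h3)
  have h6 : g = g' := xt_inj (inj_orb tbB (by decide) r1 r2 (fun _ _ => rfl) h33 rfl h5)
  subst h6
  have h7 := mul_left_cancel (mul_right_cancel h5)
  rw [ha, hc] at h7
  have h8 := (unique h7).2 41 (by decide)
  rw [ha', hc'] at h8
  have h9 : y = y' := mul_right_cancel₀ h33 (mul_left_cancel₀ h2 (sub_right_injective h8))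
  rw [h9]

/-- **the orbits of `P_J` outside `Z` have at least `q ^ 7` elements** -/
theorem ob3_spin [Finite K] (h2 : (2 : K) ≠ 0) {u : ↥(chevF4.group K)} (hu : u ∈ VK K {k | k ≠ 0})
    (hu' : u ∉ RGD.Sup (XX chevF4 4 K) {x | x ∈ NotJ cF hF.isCartan {k | k ≠ 0} ∧ 2 ≤ x 0}) :
    Nat.card K ^ 7 ≤ Nat.card ↥(cls (PK K {k | k ≠ 0}) u) := by
  obtain ⟨c, hc⟩ := exists_R hu
  obtain ⟨g, hg, d, hd, h33⟩ := exists_33 hc hu'
  have h1 := card_le_of_33 h2 hd h33
  have h3 : cls (PK K J0) (g * u * g⁻¹) = cls (PK K J0) u := by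
    ext x
    constructor
    · rintro ⟨h, hh, rfl⟩
      exact ⟨h * g, mul_mem hh hg, by group⟩
    · rintro ⟨h, hh, rfl⟩
      exact ⟨h * g⁻¹, mul_mem hh (inv_mem hg), by group⟩
  rwa [h3] at h1

/-- **the parabolic of type `B₃`** -/
theorem ob3 [Finite K] (h2 : (2 : K) ≠ 0) : Cfsg.Agent.H520.FC.OB3 K := by
  intro u hu hl
  by_cases h : u ∈ RGD.Sup (XX chevF4 4 K) {x | x ∈ NotJ cF hF.isCartan {k | k ≠ 0} ∧ 2 ≤ x 0}
  · exact Cfsg.Agent.H446.FC.ob3_v7 h2 h hl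
  · have h1 := ob3_spin h2 hu h
    have h3 : (Nat.card K - 1) ^ 2 * Nat.card K ^ 5 ≤ Nat.card K ^ 7 := by
      calc (Nat.card K - 1) ^ 2 * Nat.card K ^ 5 ≤ Nat.card K ^ 2 * Nat.card K ^ 5 :=
            Nat.mul_le_mul_right _ (Nat.pow_le_pow_left (Nat.sub_le _ _) 2)
        _ = Nat.card K ^ 7 := by ring
    omega

end Cfsg.Agent.H797.FQ.Spin
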